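import Cfsg.Agent.H643.RIM.Wrap
import Cfsg.Agent.H568.RIM.ExcB

/-!
# Characters of the series of a node `i` which have no fixed vectors of `V_K` (S4816)

`K` a set of nodes, `i` a node such that no root of `K` is conjugate to the simple root `i`.

* `exists_series` : an irreducible character over `l : Z →* ℂˣ` without fixed vectors of `V_K`;
* `nb_of_series` : `y ∈ P_K` of order `p`, not commuting with a nontrivial element of `V_K`: `NB p m S`.
-/

set_option autoImplicit false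
set_option linter.unusedSectionVars false

open scoped ComplexConjugate Pointwise

namespace Cfsg.Agent.H643.RIM

open Cfsg Cfsg.Agent.Characters CoxeterSystem Cfsg.Agent.ChevalleyStructure.CoxeterGeom Cfsg.Agent.Tits.Roots
  Cfsg.Agent.Tits.Core Cfsg.Agent.Tits.Exchange Cfsg.Agent.Nodes.Reps Cfsg.Agent.Nodes.BNOf Cfsg.Agent.Nodes.StabComb
  Cfsg.Agent.Nodes.Bruhat Cfsg.Agent.Nodes.OppDec Cfsg.Agent.Nodes.LeviDec Cfsg.Agent.Nodes.RGDLift Cfsg.Agent.H53.HC
  Cfsg.Agent.OddOrderCharacters.IndRes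
open Cfsg.Agent.H665.RIM (NB)

universe u v

section gen

variable {G : Type u} [Group G] [Finite G]

/-- A character without fixed vectors of `U` has sum zero over all the cosets of `U`. -/
theorem sum_coset_eq_zero {χ : G → ℂ} (hχ : IsCharacter G χ) (U : Subgroup G) [Fintype U] (h0 : ∑ u : U, χ u = 0)
    (g : G) : ∑ u : U, χ (g * u) = 0 := by
  classical
  obtain ⟨n, ρ, rfl⟩ := hχ
  have hne' : (Fintype.card U : ℂ) ≠ 0 := Nat.cast_ne_zero.2 Fintype.card_ne_zero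
  let σ : Representation ℂ U (Fin n → ℂ) := ρ.comp U.subtype
  let _ : Invertible (Fintype.card U : ℂ) := invertibleOfNonzero hne'
  have hproj := σ.isProj_averageMap
  have hmap : σ.averageMap = (Fintype.card U : ℂ)⁻¹ • ∑ x : U, ρ x := by
    rw [Representation.averageMap, Representation.asAlgebraHom, GroupAlgebra.average, map_smul,
      map_sum]
    simp only [MonoidAlgebra.of_apply]
    rw [invOf_eq_inv]
    congr 1
    refine Finset.sum_congr rfl fun x _ => ?_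
    simp [σ]
  have hd : Module.finrank ℂ σ.invariants = 0 := by
    have h1 := LinearMap.IsProj.trace hproj
    rw [hmap, map_smul, map_sum, smul_eq_mul] at h1
    have h2 : ∑ x : U, LinearMap.trace ℂ _ (ρ x) = 0 := h0
    rw [h2, mul_zero] at h1
    exact_mod_cast h1.symm
  have h2 : σ.invariants = ⊥ := Submodule.finrank_eq_zero.1 hd
  have h3 : σ.averageMap = 0 := by
    ext1 i
    refine LinearMap.ext fun v => ?_
    have := σ.averageMap_invariant (LinearMap.single ℂ (fun _ => ℂ) i v)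
    rw [h2, Submodule.mem_bot] at this
    simpa using this
  have h4 : ∑ x : U, ρ x = 0 := by
    rw [hmap] at h3
    rcases smul_eq_zero.1 h3 with h | h
    · exact absurd h (inv_ne_zero hne')
    · exact h
  have h5 : ∑ u : U, ρ.character (g * u) = LinearMap.trace ℂ _ (ρ g * ∑ x : U, ρ x) := by
    rw [Finset.mul_sum, map_sum]
    refine Finset.sum_congr rfl fun x _ => ?_
    rw [← map_mul]
    rfl
  rw [h5, h4, mul_zero, map_zero]

theorem sum_eq_zero_of_le {χ : G → ℂ} (hχ : IsCharacter G χ) {U V : Subgroup G} [Fintype U] [Fintype V] (hUV : U ≤ V)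
    (h0 : ∑ u : U, χ u = 0) : ∑ v : V, χ v = 0 := by
  classical
  have h1 : ∑ v : V, ∑ u : U, χ ((v : G) * u) = 0 := Finset.sum_eq_zero fun v _ => sum_coset_eq_zero hχ U h0 v
  rw [Finset.sum_comm] at h1
  have h2 : ∀ u : U, ∑ v : V, χ ((v : G) * u) = ∑ v : V, χ v := fun u =>
    Equiv.sum_comp (Equiv.mulRight (⟨u, hUV u.2⟩ : V)) fun v : V => χ v
  rw [Finset.sum_congr rfl fun u _ => h2 u, Finset.sum_const, nsmul_eq_mul, mul_eq_zero] at h1
  rcases h1 with h1 | h1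
  · exact absurd h1 (Nat.cast_ne_zero.2 (by rw [Finset.card_univ]; exact Fintype.card_ne_zero))
  · exact h1

/-- the value at an element acting without fixed points on `V` -/
theorem apply_eq_zero_of_fpf {χ : G → ℂ} (hχ : IsCharacter G χ) {V : Subgroup G} [Fintype V]
    (h0 : ∑ u : V, χ u = 0) {y : G} (hn : y ∈ Subgroup.normalizer (V : Set G)) (hf : ∀ v ∈ V, y * v = v * y → v = 1) :
    χ y = 0 := by
  classical
  have hcl := Core.isCharacter_isClassFunction hχ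
  have hmem : ∀ v : V, y⁻¹ * ((v : G)⁻¹ * y * v) ∈ V := by
    intro v
    have h1 : y⁻¹ * (v : G)⁻¹ * y ∈ V := by
      have := (Subgroup.mem_normalizer_iff.1 (inv_mem hn) ((v : G)⁻¹)).1 (inv_mem v.2)
      rwa [inv_inv] at this
    have h2 : y⁻¹ * ((v : G)⁻¹ * y * v) = (y⁻¹ * (v : G)⁻¹ * y) * v := by group
    rw [h2]
    exact mul_mem h1 v.2
  let f : V → V := fun v => ⟨y⁻¹ * ((v : G)⁻¹ * y * v), hmem v⟩
  have hinj : Function.Injective f := by
    intro a b hab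
    have h1 : y⁻¹ * ((a : G)⁻¹ * y * a) = y⁻¹ * ((b : G)⁻¹ * y * b) := congrArg Subtype.val hab
    have h2 : (a : G)⁻¹ * y * a = (b : G)⁻¹ * y * b := mul_left_cancel h1
    have h3 : (a : G) * (b : G)⁻¹ = 1 := by
      refine hf _ (mul_mem a.2 (inv_mem b.2)) ?_
      calc y * ((a : G) * (b : G)⁻¹) = a * ((a : G)⁻¹ * y * a) * (b : G)⁻¹ := by group
        _ = a * ((b : G)⁻¹ * y * b) * (b : G)⁻¹ := by rw [h2]
        _ = a * (b : G)⁻¹ * y := by group
    exact Subtype.ext (mul_inv_eq_one.1 h3)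
  have hbij : Function.Bijective f := (Finite.injective_iff_bijective).1 hinj
  have h1 : ∑ v : V, χ (y * v) = ∑ v : V, χ (y * f v) :=
    (Equiv.sum_comp (Equiv.ofBijective f hbij) fun v : V => χ (y * v)).symm
  have h2 : ∀ v : V, χ (y * f v) = χ y := by
    intro v
    have h3 : y * (f v : G) = (v : G)⁻¹ * y * ((v : G)⁻¹)⁻¹ := by
      show y * (y⁻¹ * ((v : G)⁻¹ * y * v)) = _
      group
    rw [h3]
    exact hcl y (v : G)⁻¹
  rw [sum_coset_eq_zero hχ V h0 y, Finset.sum_congr rfl fun v _ => h2 v, Finset.sum_const, nsmul_eq_mul] at h1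
  rcases mul_eq_zero.1 h1.symm with h3 | h3
  · exact absurd h3 (Nat.cast_ne_zero.2 (by rw [Finset.card_univ]; exact Fintype.card_ne_zero))
  · exact h3

end gen

section ser

variable {I : Type*} {W : Type*} {Y : Type u} [Fintype I] [DecidableEq I] [Group W] [Group Y] {M : CoxeterMatrix I}
  {cs : CoxeterSystem M W} {A : I → I → ℤ} {h : IsCartan M A} {r : ℕ} {T : Subgroup Y} {n : I → Y}
  {X : (I → ℤ) → Subgroup Y}

/-- the inflated character of `P_J` over `l` -/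
theorem exists_infl_over (R : RGD cs h r T n X) [Finite W] [Finite Y] (J : Set I) {Z : Subgroup Y} (hZT : Z ≤ T)
    (hZ : ∀ z ∈ Z, ∀ g, z * g = g * z) (l : Z →* ℂˣ)
    {θ : ↥(MJ cs h X J) → ℂ} (hθ : IsIrrCharacter _ θ)
    (hco : ∀ z (hz : z ∈ Z) (hn : z ∈ MJ cs h X J), θ ⟨z, hn⟩ = l ⟨z, hz⟩ * θ 1)
    (hc : ∀ i ∈ J, ∀ [Fintype (rad cs h X J i)], ∑ u : rad cs h X J i, θ ⟨u, rad_le_MJ J i u.2⟩ = 0) :
    ∃ ψ : ↥(PJ cs h T X J) → ℂ, IsIrrCharacter _ ψ ∧
      (∀ i ∈ J, ∀ [Fintype (rad cs h X J i)], ∑ u : rad cs h X J i, ψ ⟨u, rad_le_PJ J i u.2⟩ = 0) ∧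
      ∀ z (hz : z ∈ Z) (hzP : z ∈ PJ cs h T X J), ψ ⟨z, hzP⟩ = l ⟨z, hz⟩ * ψ 1 := by
  classical
  obtain ⟨ψ₀, hψ₀, -, ⟨c, s, hres, hsφ⟩, hψZ⟩ := exists_over_central (MJ_le_LJ (T := T) J)
    (LJ_le_normalizer_MJ R J) (le_trans hZT T_le_LJ) hZ l hθ hco
  obtain ⟨π, hπL, hπV⟩ := exists_projL R J
  have hsur : Function.Surjective π := fun l => ⟨⟨(l : Y), LJ_le_PJ l.2⟩, hπL l l.2⟩
  have hψL : ∀ (l : Y) (hl : l ∈ LJ cs h T X J), (ψ₀ ∘ π) ⟨l, LJ_le_PJ hl⟩ = ψ₀ ⟨l, hl⟩ := by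
    intro l hl
    rw [Function.comp_apply, hπL]
  have hsT : ∀ φ ∈ s, ∃ t, ∃ ht : t ∈ T, φ = θ ∘ conjME (MJ cs h X J) (T_le_normalizer_MJ R J ht) := by
    intro φ hφ
    obtain ⟨g, hg, hgφ⟩ := hsφ φ hφ
    obtain ⟨m, hm, t, ht, rfl⟩ := (mem_LJ_iff_mul' R J).1 hg
    refine ⟨t, ht, ?_⟩
    funext x
    obtain ⟨hx', e⟩ := hgφ x x.2
    rw [e, Function.comp_apply]
    have h1 := Core.isIrr_isClassFunction hθ (conjME (MJ cs h X J) (T_le_normalizer_MJ R J ht) x) ⟨m, hm⟩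
    rw [← h1]
    congr 1
    apply Subtype.ext
    simp only [conjME_coe, Subgroup.coe_mul, InvMemClass.coe_inv]
    group
  refine ⟨ψ₀ ∘ π, Core.isIrr_comp π hsur hψ₀, ?_, ?_⟩
  · intro i hi _
    have h1 : ∀ u : rad cs h X J i, (ψ₀ ∘ π) ⟨u, rad_le_PJ J i u.2⟩ = c * ∑ φ ∈ s, φ ⟨u, rad_le_MJ J i u.2⟩ :=
      fun u => (hψL u (rad_le_LJ J i u.2)).trans (hres ⟨u, rad_le_MJ J i u.2⟩)
    rw [Finset.sum_congr rfl fun u _ => h1 u, ← Finset.mul_sum, Finset.sum_comm, Finset.sum_eq_zero, mul_zero]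
    intro φ hφ
    obtain ⟨t, ht, rfl⟩ := hsT φ hφ
    rw [← hc i hi]
    exact Fintype.sum_equiv (conjME (rad cs h X J i) (T_le_normalizer_rad R J i ht)).toEquiv _ _ fun u => rfl
  · intro z hz hzP
    have hzL : z ∈ LJ cs h T X J := T_le_LJ (hZT hz)
    have h1 : (ψ₀ ∘ π) ⟨z, hzP⟩ = ψ₀ ⟨z, hzL⟩ := hψL z hzL
    have h2 : (ψ₀ ∘ π) 1 = ψ₀ 1 := by rw [Function.comp_apply, map_one]
    rw [h1, h2]
    exact hψZ z hz

/-- **A character of the series of `i` over `l`**, without fixed vectors of `V_K`. -/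
theorem exists_series (R : RGD cs h r T n X) [Finite W] [Finite Y] (hG : GG cs h T X = ⊤) (i : I) (K : Set I)
    (hw : ∀ w : W, rep cs h w (sr i) ∉ RootsJ cs h K) {Z : Subgroup Y} (hZc : Z ≤ Subgroup.center Y) (hZT : Z ≤ T)
    (l : Z →* ℂˣ) :
    ∃ χ : Y → ℂ, IsIrrCharacter Y χ ∧ (∀ z : Z, χ z = l z * χ 1) ∧ ∀ [Fintype (VJ cs h X K)], ∑ v : VJ cs h X K, χ v = 0 := by
  classical
  have : Fintype Y := Fintype.ofFinite Y
  have hZ : ∀ z ∈ Z, ∀ g, z * g = g * z := fun z hz g => (Subgroup.mem_center_iff.1 (hZc hz) g).symm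
  obtain ⟨θ, hθ⟩ := H568.RIM.exists_cusp_node R i hZc l
  obtain ⟨ψ, hψ, hψc, hψZ⟩ := exists_infl_over R {i} hZT hZ l hθ.irr (fun z hz hn => by rw [hθ.cen z hn hz, mul_comm])
    hθ.van
  have hψch := Core.isIrr_isCharacter hψ
  have hψcl := Core.isIrr_isClassFunction hψ
  -- the root groups of `± α_i`
  obtain ⟨P, hP⟩ : ∃ P : Subgroup Y, P = PJ cs h T X {i} := ⟨_, rfl⟩
  have hrad := H46.RIM.rad_single (cs := cs) (h := h) (X := X) i
  have hPi : X (sr i) ≤ PJ cs h T X {i} := by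
    rw [← hrad]; exact rad_le_PJ {i} i
  have hnP : n i ∈ PJ cs h T X {i} := LJ_le_PJ (n_mem_LJ R rfl)
  have hconj : ∀ x, x ∈ X (sr i) ↔ n i * x * (n i)⁻¹ ∈ X (-sr i) := by
    intro x
    constructor
    · intro hx
      have := R.conj_mem (rp_simple cs R.nsys i) (isRoot_sr cs h i) hx
      rwa [rep_simple_sr] at this
    · intro hx
      have := R.conj_mem (rp_simple cs R.nsys i).inv (isRoot_sr cs h i).neg hx
      rw [cs.inv_simple, map_neg, rep_simple_sr, neg_neg] at this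
      have e : (n i)⁻¹ * (n i * x * (n i)⁻¹) * ((n i)⁻¹)⁻¹ = x := by group
      rwa [e] at this
  have hPn : X (-sr i) ≤ PJ cs h T X {i} := by
    intro x hx
    have h1 : (n i)⁻¹ * x * n i ∈ X (sr i) := by
      rw [hconj]
      have e : n i * ((n i)⁻¹ * x * n i) * (n i)⁻¹ = x := by group
      rwa [e]
    have h2 : x = n i * ((n i)⁻¹ * x * n i) * (n i)⁻¹ := by group
    rw [h2]
    exact mul_mem (mul_mem hnP (hPi h1)) (inv_mem hnP)
  have hpos : ∑ u : (X (sr i)).subgroupOf (PJ cs h T X {i}), ψ u = 0 := by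
    have : Fintype (rad cs h X {i} i) := Fintype.ofFinite _
    rw [← hψc i rfl]
    refine Fintype.sum_bijective (fun u : (X (sr i)).subgroupOf (PJ cs h T X {i}) =>
      (⟨(u : PJ cs h T X {i}), by rw [hrad]; exact Subgroup.mem_subgroupOf.1 u.2⟩ : rad cs h X {i} i)) ?_ _ _ fun u => rfl
    constructor
    · intro a b hab
      have := congrArg Subtype.val hab
      exact Subtype.ext (Subtype.ext this)
    · rintro ⟨y, hy⟩
      have hy' : y ∈ X (sr i) := by rw [← hrad]; exact hy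
      exact ⟨⟨⟨y, hPi hy'⟩, Subgroup.mem_subgroupOf.2 hy'⟩, rfl⟩
  have hneg : ∑ u : (X (-sr i)).subgroupOf (PJ cs h T X {i}), ψ u = 0 := by
    rw [← hpos]
    symm
    refine Fintype.sum_bijective (fun u : (X (sr i)).subgroupOf (PJ cs h T X {i}) =>
      (⟨⟨n i, hnP⟩ * u * ⟨n i, hnP⟩⁻¹, Subgroup.mem_subgroupOf.2 ((hconj _).1 (Subgroup.mem_subgroupOf.1 u.2))⟩ :
        (X (-sr i)).subgroupOf (PJ cs h T X {i}))) ?_ _ _ fun u => ?_
    · constructor
      · intro a b hab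
        have h1 := congrArg Subtype.val hab
        exact Subtype.ext (mul_left_cancel (mul_right_cancel h1))
      · rintro ⟨y, hy⟩
        refine ⟨⟨⟨n i, hnP⟩⁻¹ * y * ⟨n i, hnP⟩, ?_⟩, Subtype.ext ?_⟩
        · rw [Subgroup.mem_subgroupOf, hconj]
          have e : n i * ((n i)⁻¹ * (y : Y) * n i) * (n i)⁻¹ = y := by group
          show n i * ((n i)⁻¹ * (y : Y) * n i) * (n i)⁻¹ ∈ _
          rw [e]
          exact Subgroup.mem_subgroupOf.1 hy
        · show ⟨n i, hnP⟩ * (⟨n i, hnP⟩⁻¹ * y * ⟨n i, hnP⟩) * ⟨n i, hnP⟩⁻¹ = y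
          group
    · exact (hψcl _ _).symm
  -- the Mackey sums
  have hmack : ∀ g : Y, ∑ v : VJ cs h X K, extendByZero (PJ cs h T X {i}) ψ (g⁻¹ * v * g) = 0 := by
    intro g
    let D : Subgroup (PJ cs h T X {i}) :=
      (VJ cs h X K).comap ((MulAut.conj g).toMonoidHom.comp (PJ cs h T X {i}).subtype)
    have hD : ∀ x : PJ cs h T X {i}, x ∈ D ↔ g * x * g⁻¹ ∈ VJ cs h X K := fun x => Iff.rfl
    have h1 : ∑ v : VJ cs h X K, extendByZero (PJ cs h T X {i}) ψ (g⁻¹ * v * g) = ∑ x : D, ψ x := by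
      rw [← Finset.sum_filter_add_sum_filter_not Finset.univ (fun v : VJ cs h X K => g⁻¹ * v * g ∈ PJ cs h T X {i})]
      have h2 : ∑ v ∈ Finset.univ.filter (fun v : VJ cs h X K => ¬ g⁻¹ * v * g ∈ PJ cs h T X {i}),
          extendByZero (PJ cs h T X {i}) ψ (g⁻¹ * v * g) = 0 :=
        Finset.sum_eq_zero fun v hv => Core.extendByZero_of_notMem _ _ (Finset.mem_filter.1 hv).2
      rw [h2, add_zero]
      symm
      refine Finset.sum_bij (fun (x : D) _ => (⟨g * x * g⁻¹, (hD x).1 x.2⟩ : VJ cs h X K)) ?_ ?_ ?_ ?_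
      · intro x _
        rw [Finset.mem_filter]
        refine ⟨Finset.mem_univ _, ?_⟩
        have e : g⁻¹ * (g * (x : Y) * g⁻¹) * g = x := by group
        show g⁻¹ * (g * (x : Y) * g⁻¹) * g ∈ _
        rw [e]
        exact x.1.2
      · intro a _ b _ hab
        have h3 : g * (a : Y) * g⁻¹ = g * (b : Y) * g⁻¹ := congrArg Subtype.val hab
        exact Subtype.ext (Subtype.ext (mul_left_cancel (mul_right_cancel h3)))
      · intro v hv
        have hv' := (Finset.mem_filter.1 hv).2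
        refine ⟨⟨⟨g⁻¹ * v * g, hv'⟩, ?_⟩, Finset.mem_univ _, Subtype.ext ?_⟩
        · rw [hD]
          have e : g * (g⁻¹ * (v : Y) * g) * g⁻¹ = v := by group
          show g * (g⁻¹ * (v : Y) * g) * g⁻¹ ∈ _
          rw [e]
          exact v.2
        · show g * (g⁻¹ * (v : Y) * g) * g⁻¹ = v
          group
      · intro x _
        have e : g⁻¹ * (g * (x : Y) * g⁻¹) * g = x := by group
        show ψ x = extendByZero (PJ cs h T X {i}) ψ (g⁻¹ * (g * (x : Y) * g⁻¹) * g)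
        rw [e, Core.extendByZero_of_mem _ _ x.1.2]
    rw [h1]
    obtain ⟨w, b₂, hb₂, m, hm, b₁, hb₁, e⟩ := (mem_GG R).1 (show g ∈ GG cs h T X by rw [hG]; exact Subgroup.mem_top g)
    have hb₁P : b₁ ∈ PJ cs h T X {i} := B_le_PJ hb₁
    have key : ∀ y : Y, m * y * m⁻¹ ∈ VJ cs h X K → ∀ hy : y ∈ PJ cs h T X {i},
        (⟨b₁, hb₁P⟩⁻¹ * ⟨y, hy⟩ * ⟨b₁, hb₁P⟩ : PJ cs h T X {i}) ∈ D := by
      intro y hy hyP
      rw [hD]
      have e1 : g * ((⟨b₁, hb₁P⟩⁻¹ * ⟨y, hyP⟩ * ⟨b₁, hb₁P⟩ : PJ cs h T X {i}) : Y) * g⁻¹ = b₂ * (m * y * m⁻¹) * b₂⁻¹ := by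
        rw [e]
        show b₂ * m * b₁ * (b₁⁻¹ * y * b₁) * (b₂ * m * b₁)⁻¹ = _
        group
      rw [e1]
      exact (Subgroup.mem_normalizer_iff.1 (PJ_le_normalizer_VJ R K (B_le_PJ hb₂)) _).1 hy
    have hroot : ∀ x : I → ℤ, IsRoot cs h x → 0 ≤ x → x ∉ RootsJ cs h K → X x ≤ VJ cs h X K := by
      intro x hx h0 hn
      refine RGD.le_Sup ⟨hx, h0, ?_⟩
      by_contra hcon
      push Not at hcon
      exact hn ⟨hx, fun k hk => le_antisymm (hcon k hk) (h0 k)⟩
    have hfin : ∀ (x : I → ℤ) (hx : IsRoot cs h x) (hxP : X x ≤ PJ cs h T X {i}), 0 ≤ rep cs h w x →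
        rep cs h w x ∉ RootsJ cs h K → ∑ u : (X x).subgroupOf (PJ cs h T X {i}), ψ u = 0 → ∑ x : D, ψ x = 0 := by
      intro x hx hxP h0 hn hs
      let c : PJ cs h T X {i} := ⟨b₁, hb₁P⟩
      refine sum_eq_zero_of_le hψch (U := ((X x).subgroupOf (PJ cs h T X {i})).map (MulAut.conj c⁻¹).toMonoidHom) ?_ ?_
      · rintro _ ⟨y, hy, rfl⟩
        have h3 := key y (hroot _ (hx.act w) h0 hn (R.conj_mem hm hx (Subgroup.mem_subgroupOf.1 hy))) y.2
        have h4 : (MulAut.conj c⁻¹).toMonoidHom y = c⁻¹ * y * c := by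
          show c⁻¹ * y * c⁻¹⁻¹ = _
          rw [inv_inv]
        rw [h4]
        exact h3
      · rw [← hs]
        symm
        refine Fintype.sum_equiv (((X x).subgroupOf (PJ cs h T X {i})).equivMapOfInjective _
          (MulAut.conj c⁻¹).injective).toEquiv _ _ fun u => ?_
        exact (hψcl _ _).symm
    have hwi := hw w
    rcases ((isRoot_sr cs h i).act w).pos_or_neg with h3 | h3
    · exact hfin (sr i) (isRoot_sr cs h i) hPi h3 hwi hpos
    · refine hfin (-sr i) (isRoot_sr cs h i).neg hPn ?_ ?_ hneg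
      · rw [map_neg]
        exact neg_nonneg.2 h3
      · rw [map_neg]
        intro h4
        apply hwi
        have := RootsJ.neg h4
        rwa [neg_neg] at this
  -- the induced character
  have hΦ := Cfsg.Agent.S0148.result (PJ cs h T X {i}) ψ hψch
  have hΦ0 : indFun (PJ cs h T X {i}) ψ ≠ 0 := by
    intro h1
    have h2 := congrFun h1 1
    rw [indFun_one, Pi.zero_apply, mul_eq_zero] at h2
    rcases h2 with h2 | h2
    · exact Subgroup.index_ne_zero_of_finite (by exact_mod_cast h2)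
    · exact Core.isIrr_apply_one_ne_zero hψ h2
  obtain ⟨χ, hχ, hne⟩ := Cfsg.Agent.H113.NormTwoChar.exists_constituent hΦ hΦ0
  have hsub := Cfsg.Agent.OddOrderCharacters.Clifford.isCharacter_sub_irr hΦ hχ hne
  refine ⟨χ, hχ, fun z => ?_, ?_⟩
  · by_contra hcon
    refine hne (Cfsg.Agent.H115.HC.CuspCentral.classInner_eq_zero hχ Z hZ l ?_ hcon)
    intro z x
    rw [Core.indFun_apply, Core.indFun_apply, Finset.mul_sum, Finset.mul_sum, Finset.mul_sum]
    refine Finset.sum_congr rfl fun g _ => ?_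
    have e : g⁻¹ * ((z : Y) * x) * g = z * (g⁻¹ * x * g) := by
      calc g⁻¹ * ((z : Y) * x) * g = (g⁻¹ * z) * x * g := by group
        _ = (z * g⁻¹) * x * g := by rw [hZ z z.2]
        _ = _ := by group
    have hzP : (z : Y) ∈ PJ cs h T X {i} := LJ_le_PJ (T_le_LJ (hZT z.2))
    rw [e]
    by_cases hy : g⁻¹ * x * g ∈ PJ cs h T X {i}
    · rw [Core.extendByZero_of_mem _ _ hy, Core.extendByZero_of_mem _ _ (mul_mem hzP hy)]
      have h1 := Cfsg.Agent.H115.HC.CuspCentral.central_apply hψ (z := ⟨z, hzP⟩)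
        (fun g => Subtype.ext (hZ z z.2 g)) ⟨g⁻¹ * x * g, hy⟩
      have h2 := hψZ z z.2 hzP
      have h3 := Core.isIrr_apply_one_ne_zero hψ
      change ψ (⟨z, hzP⟩ * ⟨g⁻¹ * x * g, hy⟩) = _ at h1
      show _ * ψ (⟨z, hzP⟩ * ⟨g⁻¹ * x * g, hy⟩) = _
      rw [h1, h2, mul_div_assoc, div_self h3, mul_one]
      ring
    · have hy' : (z : Y) * (g⁻¹ * x * g) ∉ PJ cs h T X {i} := fun h1 => hy ((Subgroup.mul_mem_cancel_left _ hzP).1 h1)
      rw [Core.extendByZero_of_notMem _ _ hy, Core.extendByZero_of_notMem _ _ hy']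
      ring
  · intro _
    refine H622.Levi.sum_eq_zero_of_add (Core.isIrr_isCharacter hχ) hsub _ ?_
    have h1 : ∀ v : VJ cs h X K, χ v + (indFun (PJ cs h T X {i}) ψ - χ) v =
        (Nat.card (PJ cs h T X {i}) : ℂ)⁻¹ * ∑ g : Y, extendByZero (PJ cs h T X {i}) ψ (g⁻¹ * v * g) := by
      intro v
      rw [Pi.sub_apply, add_sub_cancel, Core.indFun_apply]
    rw [Finset.sum_congr rfl fun v _ => h1 v, ← Finset.mul_sum, Finset.sum_comm,
      Finset.sum_eq_zero fun g _ => ?_, mul_zero]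
    convert hmack g

/-- **`NB` by the series of a node.** -/
theorem nb_of_series {S : Type u} [Group S] {T : Subgroup S} {n : I → S} {X : (I → ℤ) → Subgroup S}
    [Finite W] [Finite S] [Fact r.Prime] (R : RGD cs h r T n X) (hG : GG cs h T X = ⊤) (i : I) (K : Set I)
    (hw : ∀ w : W, rep cs h w (sr i) ∉ RootsJ cs h K) {p m : ℕ} (hp : p.Prime) (hpm : ¬ p ∣ m) (hm : ¬ r ∣ m) {y : S}
    (hy : orderOf y = p) (hyK : y ∈ PJ cs h T X K) (hf : ∀ v ∈ VJ cs h X K, y * v = v * y → v = 1) : NB p m S := by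
  classical
  intro E _ _ π hs hc hcomm hcard l hl
  have hk : (Nat.card π.ker).Coprime r := by
    rw [hcard]
    exact (((Fact.out : r.Prime).coprime_iff_not_dvd).2 hm).symm
  obtain ⟨n', hn'⟩ : ∃ n' : I → E, ∀ i, π (n' i) = n i := by
    choose n' hn' using fun i => hs (n i)
    exact ⟨n', hn'⟩
  have R' := rgd_lift hc hk hs R hn'
  have hG' := GG_lift hc hk hs R hG
  have hZT : π.ker ≤ T.comap π := fun z hz => show π z ∈ T by rw [MonoidHom.mem_ker.1 hz]; exact one_mem _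
  obtain ⟨χ, hχ, hχl, hsum⟩ := exists_series R' hG' i K hw hc hZT l
  refine ⟨χ, hχ, fun z => by rw [hχl, mul_comm], ?_⟩
  -- the lift of `y`
  have : Fact p.Prime := ⟨hp⟩
  obtain ⟨y₀, hy₀⟩ := hs y
  obtain ⟨y', hy', k, hk'⟩ := exists_ppart (r := p) π (g := y₀) (k := 1) (by
    rw [hy₀, pow_one, ← hy, pow_orderOf_eq_one])
  rw [hy₀] at hy'
  have hpZ : ¬ p ∣ Nat.card π.ker := by rw [hcard]; exact hpm
  have hyp : y' ^ p = 1 := by
    have h1 : y' ^ p ∈ π.ker := by rw [MonoidHom.mem_ker, map_pow, hy', ← hy, pow_orderOf_eq_one]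
    have h2 : (⟨y' ^ p, h1⟩ : π.ker) ^ p ^ k = 1 := by
      apply Subtype.ext
      show (y' ^ p) ^ p ^ k = 1
      rw [← pow_mul, mul_comm, pow_mul, hk', one_pow]
    have h3 : orderOf (⟨y' ^ p, h1⟩ : π.ker) = 1 := by
      refine Nat.eq_one_of_dvd_coprimes ?_ (orderOf_dvd_of_pow_eq_one h2) (orderOf_dvd_natCard _)
      exact Nat.Coprime.pow_left _ ((hp.coprime_iff_not_dvd).2 hpZ)
    exact congrArg Subtype.val (orderOf_eq_one_iff.1 h3)
  have hy1 : y' ≠ 1 := by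
    rintro rfl
    rw [map_one] at hy'
    rw [← hy', orderOf_one] at hy
    exact hp.one_lt.ne hy
  have hord : orderOf y' = p := orderOf_eq_prime hyp hy1
  have hyP : y' ∈ PJ cs h (T.comap π) (fun x => lft r π (X x)) K := by
    have h2 : π.ker ≤ PJ cs h (T.comap π) (fun x => lft r π (X x)) K :=
      le_trans (fun z hz => show π z ∈ T by rw [MonoidHom.mem_ker.1 hz]; exact one_mem _) (le_trans T_le_LJ LJ_le_PJ)
    rw [← Subgroup.comap_map_eq_self h2, map_PJ hc hk hs R, Subgroup.mem_comap, hy']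
    exact hyK
  have : Fintype (VJ cs h (fun x => lft r π (X x)) K) := Fintype.ofFinite _
  have hvan : ∀ x ∈ Subgroup.zpowers y', x ≠ 1 → χ x = 0 := by
    intro x hx hx1
    refine apply_eq_zero_of_fpf (Core.isIrr_isCharacter hχ) hsum ?_ ?_
    · exact PJ_le_normalizer_VJ R' K ((Subgroup.zpowers_le.2 hyP) hx)
    · intro v hv hcom
      have hyx : y' ∈ Subgroup.zpowers x := by
        have h1 : Nat.card (Subgroup.zpowers x) = p := by
          rw [Nat.card_zpowers]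
          have h2 : x ^ p = 1 := by
            obtain ⟨j, rfl⟩ := Subgroup.mem_zpowers_iff.1 hx
            rw [← zpow_natCast, ← zpow_mul, mul_comm, zpow_mul, zpow_natCast, hyp, one_zpow]
          exact orderOf_eq_prime h2 hx1
        have h2 : Subgroup.zpowers x = Subgroup.zpowers y' :=
          Subgroup.eq_of_le_of_card_ge (Subgroup.zpowers_le.2 hx) (by rw [h1, Nat.card_zpowers, hord])
        rw [h2]
        exact Subgroup.mem_zpowers y'
      have hcy : Commute y' v := by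
        obtain ⟨j, hj⟩ := Subgroup.mem_zpowers_iff.1 hyx
        rw [← hj]
        exact (show Commute x v from hcom).zpow_left j
      have hVm : (VJ cs h (fun x => lft r π (X x)) K).map π = VJ cs h X K :=
        map_Sup' hc hk hs R fun x hx => hx.1
      have h1 : π v = 1 := hf _ (by rw [← hVm]; exact Subgroup.mem_map_of_mem π hv) (by
        rw [← hy', ← map_mul, hcy.eq, map_mul])
      have hpg : IsPGroup r ↥(VJ cs h (fun x => lft r π (X x)) K) := R'.isPGroup_of_pos fun _ hx => ⟨hx.1, hx.2.1⟩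
      obtain ⟨j, hj⟩ := hpg ⟨v, hv⟩
      exact eq_one_of_ker hk h1 (congrArg Subtype.val hj)
  have : Fintype (Subgroup.zpowers y') := Fintype.ofFinite _
  obtain ⟨d, hd⟩ := H622.Levi.sum_subgroup (Core.isIrr_isCharacter hχ) (Subgroup.zpowers y')
  rw [Finset.sum_eq_single (1 : Subgroup.zpowers y') (fun x _ hx => hvan x x.2 fun h1 => hx (Subtype.ext h1))
    (fun h1 => absurd (Finset.mem_univ _) h1), Nat.card_zpowers, hord] at hd
  have hd : χ 1 = (p : ℂ) * d := hd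
  refine ⟨d, ?_⟩
  have h1 : ((charDegree χ : ℕ) : ℂ) = ((p * d : ℕ) : ℂ) := by
    rw [charDegree_cast hχ, hd]
    push_cast
    ring
  exact_mod_cast h1

end ser

end Cfsg.Agent.H643.RIM
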